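import Cfsg.Agent.Lib.Helper19.BT.PK
import Cfsg.Agent.Lib.Helper18.FixOrder

set_option autoImplicit false

/-! Borel--Tits for twisted groups (interface `FixBN`), by helper19's optimal-point argument restricted to an
invariant closed convex set of functionals. -/

namespace Cfsg.Agent.Lib.Helper18.TBT

open Cfsg.Lie Matrix Cfsg.Agent.Lib.Helper6 Cfsg.Agent.Lib.Helper17 Cfsg.Agent.Lib.Helper18 Cfsg.Agent.Lib.Helper36
  Cfsg.Agent.Lib.Lead.FixTwist Cfsg.Agent.Lib.Helper19.BT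

variable {D : ChevalleyDatum} {K : Type*} [Field K] {X : BNData D K}

/-- an invariant set of functionals for a twisted group. -/
structure TwA (T : FixBN X) where
  A : Set (Fin D.rank → ℝ)
  closed : IsClosed A
  mid : ∀ a ∈ A, ∀ a' ∈ A, (fun k => (a k + a' k) / 2) ∈ A
  act : ∀ O ∈ T.orbs, ∀ a ∈ A, ∃ a' ∈ A, Tw (T.sO O) (deg D a) (deg D a') ∧ nrm D a' = nrm D a
  dom : ∀ a ∈ A, (¬ ∀ k, 0 ≤ a k) → ∃ O ∈ T.orbs, ∃ a' ∈ A, Tw (T.sO O) (deg D a) (deg D a') ∧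
    nrm D a' = nrm D a ∧ (negSet D a').card < (negSet D a).card
  base : ∃ a ∈ A, D.posUnipotent K ≤ uT K (deg D a)

variable {T : FixBN X} (S : TwA T)

/-- feasibility inside the twisted group. -/
def Feas1 (Q : Subgroup (GL D.Idx K)) (a : Fin D.rank → ℝ) : Prop :=
  a ∈ S.A ∧ ∃ g ∈ T.G1, ∀ x ∈ Q, g⁻¹ * x * g ∈ uT K (deg D a)

theorem isClosed_feas1 [Fintype K] (Q : Subgroup (GL D.Idx K)) : IsClosed {a | Feas1 S Q a} := by
  classical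
  have hfin : Finite (GL D.Idx K) := inferInstance
  have : {a | Feas1 S Q a} = S.A ∩ ⋃ g ∈ (T.G1 : Set (GL D.Idx K)), ⋂ x ∈ (Q : Set (GL D.Idx K)),
      {a : Fin D.rank → ℝ | g⁻¹ * x * g ∈ uT K (deg D a)} := by
    ext a
    simp only [Set.mem_inter_iff, Set.mem_ofPred_eq, Set.mem_iUnion, Set.mem_iInter, SetLike.mem_coe, exists_prop]
    rfl
  rw [this]
  apply S.closed.inter
  apply (Set.toFinite _).isClosed_biUnion
  intro g _
  apply isClosed_biInter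
  intro x _
  exact isClosed_uT _

theorem exists_min1 [Fintype K] (hD : D ∈ [chevG2, chevB2, chevD4, chevF4, chevE6, chevE7, chevE8])
    (Q : Subgroup (GL D.Idx K)) (h : ∃ a, Feas1 S Q a) :
    ∃ a₀, Feas1 S Q a₀ ∧ ∀ a, Feas1 S Q a → nrm D a₀ ≤ nrm D a := by
  obtain ⟨a₁, h₁⟩ := h
  have hKc : IsClosed ({a | Feas1 S Q a} ∩ {a | nrm D a ≤ nrm D a₁}) :=
    (isClosed_feas1 S Q).inter (isClosed_le continuous_nrm continuous_const)
  have hsub : ({a | Feas1 S Q a} ∩ {a | nrm D a ≤ nrm D a₁}) ⊆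
      Metric.closedBall (0 : Fin D.rank → ℝ) (Real.sqrt (nrm D a₁)) := by
    rintro a ⟨-, ha⟩
    rw [mem_closedBall_zero_iff, pi_norm_le_iff_of_nonneg (Real.sqrt_nonneg _)]
    intro k
    rw [Real.norm_eq_abs]
    exact Real.abs_le_sqrt ((sq_le_nrm hD a k).trans ha)
  have hK : IsCompact ({a | Feas1 S Q a} ∩ {a | nrm D a ≤ nrm D a₁}) :=
    (isCompact_closedBall _ _).of_isClosed_subset hKc hsub
  obtain ⟨a₀, ha₀, hmin⟩ := hK.exists_isMinOn ⟨a₁, h₁, le_refl (nrm D a₁)⟩ continuous_nrm.continuousOn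
  refine ⟨a₀, ha₀.1, fun a ha => ?_⟩
  by_cases hle : nrm D a ≤ nrm D a₁
  · exact hmin ⟨ha, hle⟩
  · push Not at hle
    exact (ha₀.2.trans hle.le)

/-- `N¹` acts on the invariant set. -/
theorem good_N1 (hD : D ∈ [chevG2, chevB2, chevD4, chevF4, chevE6, chevE7, chevE8])
    {n : GL D.Idx K} (hn : n ∈ D.monomialSubgroup K) (hn1 : n ∈ T.G1) :
    ∀ a ∈ S.A, ∃ a' ∈ S.A, Tw n (deg D a) (deg D a') ∧ nrm D a' = nrm D a := by
  refine FixB.N1_induction T (fun n => ∀ a ∈ S.A, ∃ a' ∈ S.A, Tw n (deg D a) (deg D a') ∧ nrm D a' = nrm D a)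
    ?_ ?_ n hn hn1
  · intro h hh _ a ha
    exact ⟨a, ha, bT_le_pT _ (H_le_bT hD a hh), rfl⟩
  · intro n' _ _ O hO ih a ha
    obtain ⟨a', ha', h1, h2⟩ := S.act O hO a ha
    obtain ⟨a'', ha'', h3, h4⟩ := ih a' ha'
    exact ⟨a'', ha'', Tw.mul h3 h1, h4.trans h2⟩

theorem exists_dominant1 (a : Fin D.rank → ℝ) (ha : a ∈ S.A) :
    ∃ n ∈ T.G1, ∃ a' ∈ S.A, Tw n (deg D a) (deg D a') ∧ nrm D a' = nrm D a ∧ ∀ k, 0 ≤ a' k := by
  induction hc : (negSet D a).card using Nat.strong_induction_on generalizing a with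
  | _ c ih =>
    by_cases hdom : ∀ k, 0 ≤ a k
    · exact ⟨1, one_mem _, a, ha, (pT K (deg D a)).one_mem, rfl, hdom⟩
    · obtain ⟨O, hO, a₁, ha₁, h1, h2, hlt⟩ := S.dom a ha hdom
      rw [hc] at hlt
      obtain ⟨n₁, hn₁, a', ha', h₁, h₂, h₃⟩ := ih _ hlt a₁ ha₁ rfl
      exact ⟨n₁ * T.sO O, mul_mem hn₁ (T.sO_mem O hO), a', ha', Tw.mul h₁ h1, h₂.trans h2, h₃⟩

theorem Feas1.tw {Q : Subgroup (GL D.Idx K)} {a a' : Fin D.rank → ℝ} (h : Feas1 S Q a) (ha' : a' ∈ S.A)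
    {n : GL D.Idx K} (hn : n ∈ T.G1) (ht : Tw n (deg D a) (deg D a')) : Feas1 S Q a' := by
  obtain ⟨-, g, hg, h⟩ := h
  refine ⟨ha', g * n⁻¹, mul_mem hg (inv_mem hn), fun x hx => ?_⟩
  have e : (g * n⁻¹)⁻¹ * x * (g * n⁻¹) = n * (g⁻¹ * x * g) * n⁻¹ := by group
  rw [e]
  exact ht.conj_mem (h x hx)

/-- Borel--Tits for a twisted group. -/
theorem tbt [Fintype K] (hD : D ∈ [chevG2, chevB2, chevD4, chevF4, chevE6, chevE7, chevE8])
    (Q : Subgroup (GL D.Idx K)) (hne : Q ≠ ⊥)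
    (hsyl : ∃ g ∈ T.G1, ∀ x ∈ Q, g⁻¹ * x * g ∈ D.posUnipotent K) :
    ∃ g ∈ T.G1, ∃ a₀ ∈ S.A, (∀ k, 0 ≤ a₀ k) ∧ (∃ k, a₀ k ≠ 0) ∧
      ∀ x ∈ Subgroup.normalizer (Q : Set (GL D.Idx K)), x ∈ T.G1 → g⁻¹ * x * g ∈ pT K (deg D a₀) := by
  obtain ⟨ab, hab, hU⟩ := S.base
  obtain ⟨gs, hgs, hQs⟩ := hsyl
  have hf : Feas1 S Q ab := ⟨hab, gs, hgs, fun x hx => hU (hQs x hx)⟩
  obtain ⟨a₁, hf₁, hmin₁⟩ := exists_min1 S hD Q ⟨_, hf⟩
  obtain ⟨n₁, hn₁, a₀, ha₀, ht₁, hnrm, hdom⟩ := exists_dominant1 S a₁ hf₁.1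
  have hf₀ : Feas1 S Q a₀ := hf₁.tw S ha₀ hn₁ ht₁
  have hmin : ∀ a, Feas1 S Q a → nrm D a₀ ≤ nrm D a := fun a ha => hnrm ▸ hmin₁ a ha
  obtain ⟨-, g₀, hg₀, hQ₀⟩ := hf₀
  have hBp : D.borelSubgroup K ≤ pT K (deg D a₀) := B_le_pT hD hdom
  refine ⟨g₀, hg₀, a₀, ha₀, hdom, ?_, ?_⟩
  · by_contra hc
    push Not at hc
    have hd : deg D a₀ = fun _ => 0 := by
      funext i
      rcases i with i | s
      · rfl
      · show lam D a₀ s = 0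
        unfold lam
        apply Finset.sum_eq_zero
        intro k _
        rw [hc k, zero_mul]
    apply hne
    rw [eq_bot_iff]
    intro x hx
    have h1 := hQ₀ x hx
    rw [hd, uT_zero, Subgroup.mem_bot] at h1
    rw [Subgroup.mem_bot]
    have : x = g₀ * (g₀⁻¹ * x * g₀) * g₀⁻¹ := by group
    rw [this, h1]; group
  · intro x hxN hxG
    have hy : g₀⁻¹ * x * g₀ ∈ T.G1 := mul_mem (mul_mem (inv_mem hg₀) hxG) hg₀
    obtain ⟨b, hb, hb1, n, hn, hn1, u, hu, hu1, hy'⟩ := T.nf_G1 hy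
    have hbB : b ∈ D.borelSubgroup K := Base.U_le_B hb
    have huB : u ∈ D.borelSubgroup K := Base.U_le_B (Um_le_U n hu)
    obtain ⟨a', ha', ht, hn'⟩ := good_N1 S hD hn hn1 a₀ ha₀
    have hfm : Feas1 S Q (fun k => (a₀ k + a' k) / 2) := by
      refine ⟨S.mid a₀ ha₀ a' ha', g₀ * b, mul_mem hg₀ hb1, fun q hq => ?_⟩
      rw [deg_mid]
      apply uT_inf_le
      constructor
      · have e : (g₀ * b)⁻¹ * q * (g₀ * b) = b⁻¹ * (g₀⁻¹ * q * g₀) * (b⁻¹)⁻¹ := by group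
        rw [e]
        exact Tw.conj_mem (hBp (inv_mem hbB)) (hQ₀ q hq)
      · have hq' : x⁻¹ * q * x ∈ Q := by
          have := (Subgroup.mem_normalizer_iff.mp (inv_mem hxN) q).mp hq
          rwa [inv_inv] at this
        have e : (g₀ * b)⁻¹ * q * (g₀ * b) =
            n * (u * (g₀⁻¹ * (x⁻¹ * q * x) * g₀) * u⁻¹) * n⁻¹ := by
          have hx : x = g₀ * (b * n * u) * g₀⁻¹ := by rw [← hy']; group
          rw [hx]; group
        rw [e]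
        exact ht.conj_mem (Tw.conj_mem (hBp huB) (hQ₀ _ hq'))
    have hdeg : deg D a' = deg D a₀ := deg_eq_of_mid a₀ a' hn' (hmin _ hfm)
    rw [hdeg] at ht
    rw [hy']
    exact mul_mem (mul_mem (hBp hbB) ht) (hBp huB)

end Cfsg.Agent.Lib.Helper18.TBT
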