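import Cfsg.Agent.Lib.Helper18.TBT.Gen
import Cfsg.Agent.Lib.Helper6.BN2

set_option autoImplicit false

namespace Cfsg.Agent.Lib.Helper18.TBT

open Cfsg.Lie Matrix Cfsg.Agent.Lib.Helper6 Cfsg.Agent.Lib.Helper17 Cfsg.Agent.Lib.Helper18 Cfsg.Agent.Lib.Helper36
  Cfsg.Agent.Lib.Lead.FixTwist Cfsg.Agent.Lib.Helper6.BN

variable {D : ChevalleyDatum} {K : Type*} [Field K] {X : BNData D K}

/-- the size of the double coset `B¹ s_O B¹` in a twisted group. -/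
theorem card_dc_sO [Finite K] (T : FixBN X) {O : List ℕ} (hO : O ∈ T.orbs) (s : ↥T.G1)
    (hs : (s : GL D.Idx K) = T.sO O) :
    Nat.card (dc T.bnPair s) = Nat.card ↥T.bnPair.B * Nat.card ↥(Um D K (T.sO O) ⊓ T.G1) := by
  rw [← Nat.card_prod]
  symm
  apply Nat.card_congr
  have hsN := T.sO_mem_N hO
  have hsN1 : s ∈ T.bnPair.N := (T.mem_N1 s).2 (hs ▸ hsN)
  refine Equiv.ofBijective (fun p => ⟨p.1.1 * s * ⟨p.2.1, p.2.2.2⟩, ?_⟩) ⟨?_, ?_⟩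
  · rw [mem_dc]
    exact ⟨p.1.1, p.1.2, ⟨p.2.1, p.2.2.2⟩, (T.mem_B1 _).2 (Base.U_le_B (Um_le_U _ p.2.2.1)), rfl⟩
  · rintro ⟨⟨b, hb⟩, ⟨y, hy, hy1⟩⟩ ⟨⟨b', hb'⟩, ⟨y', hy', hy1'⟩⟩ e
    have e0 : b * s * (⟨y, hy1⟩ : ↥T.G1) = b' * s * (⟨y', hy1'⟩ : ↥T.G1) := congrArg Subtype.val e
    have e' : (b : GL D.Idx K) * T.sO O * y = (b' : GL D.Idx K) * T.sO O * y' := by
      have := congrArg (fun z : ↥T.G1 => (z : GL D.Idx K)) e0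
      simp only [Subgroup.coe_mul, hs] at this
      exact this
    obtain ⟨e1, e2⟩ := (X.bruhat_normal_unique ((T.mem_B1 b).1 hb) ((T.mem_B1 b').1 hb') hsN hsN hy hy' e').2 rfl
    have e1' : b = b' := Subtype.ext e1
    subst e1' e2
    rfl
  · rintro ⟨g, hg⟩
    obtain ⟨u₁, h1, g1, n, hn, gn, u₂, h2, g2, e⟩ := T.nf_G1 g.2
    have hB1 : (⟨u₁, g1⟩ : ↥T.G1) ∈ T.bnPair.B := (T.mem_B1 _).2 (Base.U_le_B h1)
    have hB2 : (⟨u₂, g2⟩ : ↥T.G1) ∈ T.bnPair.B := (T.mem_B1 _).2 (Base.U_le_B (Um_le_U _ h2))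
    have hn1 : (⟨n, gn⟩ : ↥T.G1) ∈ T.bnPair.N := (T.mem_N1 _).2 hn
    have hnd : (⟨n, gn⟩ : ↥T.G1) ∈ dc T.bnPair s := by
      have e2 : (⟨n, gn⟩ : ↥T.G1) = (⟨u₁, g1⟩ : ↥T.G1)⁻¹ * g * (⟨u₂, g2⟩ : ↥T.G1)⁻¹ := by
        apply Subtype.ext
        simp only [Subgroup.coe_mul, Subgroup.coe_inv]
        rw [e]; group
      rw [e2]
      exact mul_mem_dc (inv_mem hB1) (inv_mem hB2) hg
    have hrel : s⁻¹ * (⟨n, gn⟩ : ↥T.G1) ∈ T.bnPair.B := bruhat_unique hsN1 hn1 hnd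
    have ht : (T.sO O)⁻¹ * n ∈ D.diagonalSubgroup K := by
      rw [← X.hB.B_inf_N X.hT.toTabs, Subgroup.mem_inf]
      refine ⟨?_, (D.monomialSubgroup K).mul_mem ((D.monomialSubgroup K).inv_mem hsN) hn⟩
      have := (T.mem_B1 _).1 hrel
      simpa only [Subgroup.coe_mul, Subgroup.coe_inv, hs] using this
    set h := T.sO O * ((T.sO O)⁻¹ * n) * (T.sO O)⁻¹ with hh
    have hhH : h ∈ D.diagonalSubgroup K := (X.hB.N_conj_H X.hT.tab hsN).1 _ ht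
    have hne : n = h * T.sO O := by rw [hh]; group
    have hh1 : h ∈ T.G1 := by
      have : h = n * (T.sO O)⁻¹ := by rw [hh]; group
      rw [this]
      exact mul_mem gn (inv_mem (T.sO_mem O hO))
    rw [hne, X.hB.Um_H_mul hhH] at h2
    refine ⟨⟨⟨⟨u₁ * h, mul_mem g1 hh1⟩, (T.mem_B1 _).2 (mul_mem (Base.U_le_B h1) (Base.H_le_B hhH))⟩,
      ⟨u₂, h2, g2⟩⟩, ?_⟩
    apply Subtype.ext
    apply Subtype.ext
    simp only [Subgroup.coe_mul, hs]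
    rw [e, hne]; group

end Cfsg.Agent.Lib.Helper18.TBT
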