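import Cfsg.Agent.Lib.Helper18.TBT.Gen

set_option autoImplicit false

namespace Cfsg.Agent.Lib.Helper18.TBT

open Cfsg.Lie Matrix Cfsg.Agent.Lib.Helper6 Cfsg.Agent.Lib.Helper17 Cfsg.Agent.Lib.Helper18 Cfsg.Agent.Lib.Helper36
  Cfsg.Agent.Lib.Lead.FixTwist

variable {D : ChevalleyDatum} {K : Type*} [Field K] {X : BNData D K}

/-- the factors `u`, `h` of an element of `B ⊓ G¹` lie in `G¹`. -/
theorem exists_uh_of_mem_B1 (T : FixBN X) {b : GL D.Idx K} (hb : b ∈ D.borelSubgroup K) (hb1 : b ∈ T.G1) :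
    ∃ u ∈ D.posUnipotent K, u ∈ T.G1 ∧ ∃ h ∈ D.diagonalSubgroup K, h ∈ T.G1 ∧ b = u * h := by
  obtain ⟨u, hu, h, hh, rfl⟩ := X.hB.mem_B_iff.1 hb
  have hF : u * h * 1 ∈ T.F := by rw [mul_one]; exact T.G1_fixed _ hb1
  obtain ⟨f1, -, -⟩ := T.nf_fixed hu (Base.H_le_N hh) (one_mem _) hF
  have g1 := T.U_fixed_le hu f1
  refine ⟨u, hu, g1, h, hh, ?_, rfl⟩
  have : h = u⁻¹ * (u * h) := by group
  rw [this]
  exact mul_mem (inv_mem g1) hb1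

/-! ## [PC] `|B¹| = |U¹| |H¹|`. -/
theorem card_B1 [Finite K] (T : FixBN X) :
    Nat.card ↥T.bnPair.B =
      Nat.card ↥(D.posUnipotent K ⊓ T.G1) * Nat.card ↥(D.diagonalSubgroup K ⊓ T.G1) := by
  have e1 : Nat.card ↥T.bnPair.B = Nat.card ↥(D.borelSubgroup K ⊓ T.G1) :=
    Nat.card_congr (Subgroup.subgroupOfEquivOfLe (inf_le_right : D.borelSubgroup K ⊓ T.G1 ≤ T.G1)).toEquiv
  rw [e1, ← Nat.card_prod]
  symm
  apply Nat.card_congr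
  refine Equiv.ofBijective (fun p => ⟨p.1.1 * p.2.1,
    mul_mem (Base.U_le_B p.1.2.1) (Base.H_le_B p.2.2.1), mul_mem p.1.2.2 p.2.2.2⟩) ⟨?_, ?_⟩
  · rintro ⟨⟨u, hu, hu1⟩, ⟨h, hh, hh1⟩⟩ ⟨⟨u', hu', hu1'⟩, ⟨h', hh', hh1'⟩⟩ e
    have e' : u * h = u' * h' := congrArg Subtype.val e
    have h3 : u'⁻¹ * u ∈ D.posUnipotent K ⊓ D.diagonalSubgroup K := by
      rw [Subgroup.mem_inf]
      refine ⟨(D.posUnipotent K).mul_mem ((D.posUnipotent K).inv_mem hu') hu, ?_⟩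
      have : u'⁻¹ * u = h' * h⁻¹ := by
        calc u'⁻¹ * u = u'⁻¹ * (u * h) * h⁻¹ := by group
          _ = h' * h⁻¹ := by rw [e']; group
      rw [this]
      exact (D.diagonalSubgroup K).mul_mem hh' ((D.diagonalSubgroup K).inv_mem hh)
    rw [X.hB.U_inf_H X.hT.toTabs, Subgroup.mem_bot] at h3
    have hu_eq : u = u' := (inv_mul_eq_one.1 h3).symm
    subst hu_eq
    have hh_eq : h = h' := mul_left_cancel e'
    subst hh_eq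
    rfl
  · rintro ⟨b, hb, hb1⟩
    obtain ⟨u, hu, g1, h, hh, g2, rfl⟩ := exists_uh_of_mem_B1 T hb hb1
    exact ⟨⟨⟨u, hu, g1⟩, ⟨h, hh, g2⟩⟩, rfl⟩

end Cfsg.Agent.Lib.Helper18.TBT
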