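import Cfsg.Agent.Lib.Helper18.TBT.Gen
import Cfsg.Agent.Lib.Helper18.F4Exp

set_option autoImplicit false

/-! The invariant functionals of `²F₄`. -/

namespace Cfsg.Agent.Lib.Helper18.TBT

open Cfsg.Lie Matrix Cfsg.Agent.Lib.Helper6 Cfsg.Agent.Lib.Helper17 Cfsg.Agent.Lib.Helper18 Cfsg.Agent.Lib.Helper36
  Cfsg.Agent.Lib.Lead.FixTwist Cfsg.Agent.Lib.Helper19.BT

section gen

variable {D : ChevalleyDatum} {K : Type*} [Field K]

/-- iterated reflections. -/
noncomputable def reflL (D : ChevalleyDatum) (L : List ℕ) (a : Fin D.rank → ℝ) : Fin D.rank → ℝ :=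
  L.foldr (fun i a => if h : i < D.rank then refl D ⟨i, h⟩ a else a) a

lemma reflL_nil (a : Fin D.rank → ℝ) : reflL D [] a = a := rfl

lemma reflL_cons {i : ℕ} (hi : i < D.rank) (L : List ℕ) (a : Fin D.rank → ℝ) :
    reflL D (i :: L) a = refl D ⟨i, hi⟩ (reflL D L a) := by
  show (if h : i < D.rank then refl D ⟨i, h⟩ (reflL D L a) else reflL D L a) = _
  rw [dif_pos hi]

theorem tw_nW (hD : D ∈ [chevG2, chevB2, chevD4, chevF4, chevE6, chevE7, chevE8]) (hB : Base D K)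
    (L : List ℕ) (hL : ∀ i ∈ L, i < D.rank) (a : Fin D.rank → ℝ) :
    Tw (hB.nW L) (deg D a) (deg D (reflL D L a)) ∧ nrm D (reflL D L a) = nrm D a := by
  induction L with
  | nil =>
    rw [Base.nW_nil, reflL_nil]
    exact ⟨(pT K (deg D a)).one_mem, rfl⟩
  | cons i L ih =>
    have hi : i < D.rank := hL i (by simp)
    obtain ⟨h1, h2⟩ := ih (fun j hj => hL j (by simp [hj]))
    rw [Base.nW_cons, reflL_cons hi]
    exact ⟨Tw.mul (tw_ng hD ⟨i, hi⟩ _) h1, (nrm_refl hD _ _).trans h2⟩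

end gen

/-- the four indices. -/
def j0 : Fin chevF4.rank := ⟨0, by decide⟩
def j1 : Fin chevF4.rank := ⟨1, by decide⟩
def j2 : Fin chevF4.rank := ⟨2, by decide⟩
def j3 : Fin chevF4.rank := ⟨3, by decide⟩

lemma forall_j {P : Fin chevF4.rank → Prop} (h0 : P j0) (h1 : P j1) (h2 : P j2) (h3 : P j3) : ∀ k, P k := by
  rintro ⟨i, hi⟩
  have hi' : i < 4 := hi
  interval_cases i
  · exact h0
  · exact h1
  · exact h2
  · exact h3

theorem cartF4 : (List.range 4).map (fun i => (List.range 4).map fun l => chevF4.cartan i (chevF4.simple l)) =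
    [[2, -1, 0, 0], [-1, 2, -2, 0], [0, -1, 2, -1], [0, 0, -1, 2]] := by decide +kernel

lemma cart_eq (i l : ℕ) (hi : i < 4) (hl : l < 4) : chevF4.cartan i (chevF4.simple l) =
    (([[2, -1, 0, 0], [-1, 2, -2, 0], [0, -1, 2, -1], [0, 0, -1, 2]] : List (List ℤ)).getD i []).getD l 0 := by
  rw [← cartF4]
  interval_cases i <;> interval_cases l <;> rfl

variable (a : Fin chevF4.rank → ℝ)

lemma refl0 : refl chevF4 j0 a j0 = - a j0 ∧ refl chevF4 j0 a j1 = a j1 + a j0 ∧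
    refl chevF4 j0 a j2 = a j2 ∧ refl chevF4 j0 a j3 = a j3 := by
  refine ⟨?_, ?_, ?_, ?_⟩ <;> unfold Cfsg.Agent.Lib.Helper19.BT.refl
  · rw [show chevF4.cartan (j0 : ℕ) (chevF4.simple (j0 : ℕ)) = 2 from cart_eq 0 0 (by norm_num) (by norm_num)]
    push_cast; ring
  · rw [show chevF4.cartan (j0 : ℕ) (chevF4.simple (j1 : ℕ)) = -1 from cart_eq 0 1 (by norm_num) (by norm_num)]
    push_cast; ring
  · rw [show chevF4.cartan (j0 : ℕ) (chevF4.simple (j2 : ℕ)) = 0 from cart_eq 0 2 (by norm_num) (by norm_num)]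
    push_cast; ring
  · rw [show chevF4.cartan (j0 : ℕ) (chevF4.simple (j3 : ℕ)) = 0 from cart_eq 0 3 (by norm_num) (by norm_num)]
    push_cast; ring

lemma refl1 : refl chevF4 j1 a j0 = a j0 + a j1 ∧ refl chevF4 j1 a j1 = - a j1 ∧
    refl chevF4 j1 a j2 = a j2 + 2 * a j1 ∧ refl chevF4 j1 a j3 = a j3 := by
  refine ⟨?_, ?_, ?_, ?_⟩ <;> unfold Cfsg.Agent.Lib.Helper19.BT.refl
  · rw [show chevF4.cartan (j1 : ℕ) (chevF4.simple (j0 : ℕ)) = -1 from cart_eq 1 0 (by norm_num) (by norm_num)]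
    push_cast; ring
  · rw [show chevF4.cartan (j1 : ℕ) (chevF4.simple (j1 : ℕ)) = 2 from cart_eq 1 1 (by norm_num) (by norm_num)]
    push_cast; ring
  · rw [show chevF4.cartan (j1 : ℕ) (chevF4.simple (j2 : ℕ)) = -2 from cart_eq 1 2 (by norm_num) (by norm_num)]
    push_cast; ring
  · rw [show chevF4.cartan (j1 : ℕ) (chevF4.simple (j3 : ℕ)) = 0 from cart_eq 1 3 (by norm_num) (by norm_num)]
    push_cast; ring

lemma refl2 : refl chevF4 j2 a j0 = a j0 ∧ refl chevF4 j2 a j1 = a j1 + a j2 ∧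
    refl chevF4 j2 a j2 = - a j2 ∧ refl chevF4 j2 a j3 = a j3 + a j2 := by
  refine ⟨?_, ?_, ?_, ?_⟩ <;> unfold Cfsg.Agent.Lib.Helper19.BT.refl
  · rw [show chevF4.cartan (j2 : ℕ) (chevF4.simple (j0 : ℕ)) = 0 from cart_eq 2 0 (by norm_num) (by norm_num)]
    push_cast; ring
  · rw [show chevF4.cartan (j2 : ℕ) (chevF4.simple (j1 : ℕ)) = -1 from cart_eq 2 1 (by norm_num) (by norm_num)]
    push_cast; ring
  · rw [show chevF4.cartan (j2 : ℕ) (chevF4.simple (j2 : ℕ)) = 2 from cart_eq 2 2 (by norm_num) (by norm_num)]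
    push_cast; ring
  · rw [show chevF4.cartan (j2 : ℕ) (chevF4.simple (j3 : ℕ)) = -1 from cart_eq 2 3 (by norm_num) (by norm_num)]
    push_cast; ring

lemma refl3 : refl chevF4 j3 a j0 = a j0 ∧ refl chevF4 j3 a j1 = a j1 ∧
    refl chevF4 j3 a j2 = a j2 + a j3 ∧ refl chevF4 j3 a j3 = - a j3 := by
  refine ⟨?_, ?_, ?_, ?_⟩ <;> unfold Cfsg.Agent.Lib.Helper19.BT.refl
  · rw [show chevF4.cartan (j3 : ℕ) (chevF4.simple (j0 : ℕ)) = 0 from cart_eq 3 0 (by norm_num) (by norm_num)]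
    push_cast; ring
  · rw [show chevF4.cartan (j3 : ℕ) (chevF4.simple (j1 : ℕ)) = 0 from cart_eq 3 1 (by norm_num) (by norm_num)]
    push_cast; ring
  · rw [show chevF4.cartan (j3 : ℕ) (chevF4.simple (j2 : ℕ)) = -1 from cart_eq 3 2 (by norm_num) (by norm_num)]
    push_cast; ring
  · rw [show chevF4.cartan (j3 : ℕ) (chevF4.simple (j3 : ℕ)) = 2 from cart_eq 3 3 (by norm_num) (by norm_num)]
    push_cast; ring

/-- the invariant functionals. -/
def AF4 : Set (Fin chevF4.rank → ℝ) := {a | a j3 = Real.sqrt 2 * a j0 ∧ a j2 = Real.sqrt 2 * a j1}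

lemma sq2 : Real.sqrt 2 * Real.sqrt 2 = 2 := Real.mul_self_sqrt (by norm_num)

lemma sq2_pos : 0 < Real.sqrt 2 := Real.sqrt_pos.mpr (by norm_num)

lemma reflL_03 : reflL chevF4 [0, 3] a = refl chevF4 j0 (refl chevF4 j3 a) := by
  rw [reflL_cons (by decide), reflL_cons (by decide), reflL_nil]; rfl

lemma reflL_1212 : reflL chevF4 [1, 2, 1, 2] a =
    refl chevF4 j1 (refl chevF4 j2 (refl chevF4 j1 (refl chevF4 j2 a))) := by
  rw [reflL_cons (by decide), reflL_cons (by decide), reflL_cons (by decide), reflL_cons (by decide), reflL_nil]; rfl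

variable {a}

lemma mem_03 (ha : a ∈ AF4) : reflL chevF4 [0, 3] a ∈ AF4 := by
  obtain ⟨h1, h2⟩ := ha
  rw [reflL_03]
  constructor
  · rw [(refl0 _).2.2.2, (refl0 _).1, (refl3 _).2.2.2, (refl3 _).1, h1]; ring
  · rw [(refl0 _).2.2.1, (refl0 _).2.1, (refl3 _).2.2.1, (refl3 _).2.1, (refl3 _).1, h1, h2]; ring

lemma mem_1212 (ha : a ∈ AF4) : reflL chevF4 [1, 2, 1, 2] a ∈ AF4 := by
  obtain ⟨h1, h2⟩ := ha
  rw [reflL_1212]
  constructor
  · simp only [refl1, refl2, h1, h2]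
    linear_combination (-a j1) * sq2
  · simp only [refl1, refl2, h2]
    ring

lemma card_03 (ha : a ∈ AF4) (h0 : a j0 < 0) :
    (negSet chevF4 (reflL chevF4 [0, 3] a)).card < (negSet chevF4 a).card := by
  obtain ⟨h1, h2⟩ := ha
  rw [reflL_03]
  have e1 := card_negSet_refl_lt memF4 a j3 (by rw [h1]; exact mul_neg_of_pos_of_neg sq2_pos h0)
  have e2 := card_negSet_refl_lt memF4 (refl chevF4 j3 a) j0 (by rw [(refl3 _).1]; exact h0)
  omega

lemma card_1212 (ha : a ∈ AF4) (h0 : a j1 < 0) :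
    (negSet chevF4 (reflL chevF4 [1, 2, 1, 2] a)).card < (negSet chevF4 a).card := by
  obtain ⟨h1, h2⟩ := ha
  rw [reflL_1212]
  have hn : a j2 < 0 := by rw [h2]; exact mul_neg_of_pos_of_neg sq2_pos h0
  have e1 := card_negSet_refl_lt memF4 a j2 hn
  have e2 := card_negSet_refl_lt memF4 (refl chevF4 j2 a) j1 (by rw [(refl2 _).2.1]; linarith)
  have e3 := card_negSet_refl_lt memF4 (refl chevF4 j1 (refl chevF4 j2 a)) j2
    (by rw [(refl1 _).2.2.1, (refl2 _).2.2.1, (refl2 _).2.1]; linarith)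
  have e4 := card_negSet_refl_lt memF4 (refl chevF4 j2 (refl chevF4 j1 (refl chevF4 j2 a))) j1
    (by rw [(refl2 _).2.1, (refl1 _).2.1, (refl1 _).2.2.1, (refl2 _).2.2.1, (refl2 _).2.1]; linarith)
  omega

lemma isClosed_AF4 : IsClosed AF4 := by
  have : AF4 = {a | a j3 = Real.sqrt 2 * a j0} ∩ {a | a j2 = Real.sqrt 2 * a j1} := rfl
  rw [this]
  exact (isClosed_eq (continuous_apply j3) (continuous_const.mul (continuous_apply j0))).inter
    (isClosed_eq (continuous_apply j2) (continuous_const.mul (continuous_apply j1)))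

/-- the base point. -/
noncomputable def aB : Fin chevF4.rank → ℝ := fun k => if k.1 < 2 then 1 else Real.sqrt 2

lemma aB_mem : aB ∈ AF4 := by
  constructor
  · show (if (3 : ℕ) < 2 then (1 : ℝ) else Real.sqrt 2) = Real.sqrt 2 * (if (0 : ℕ) < 2 then (1 : ℝ) else Real.sqrt 2)
    norm_num
  · show (if (2 : ℕ) < 2 then (1 : ℝ) else Real.sqrt 2) = Real.sqrt 2 * (if (1 : ℕ) < 2 then (1 : ℝ) else Real.sqrt 2)
    norm_num

lemma one_le_aB (k : Fin chevF4.rank) : 1 ≤ aB k := by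
  unfold aB
  split_ifs
  · exact le_refl _
  · rw [show (1 : ℝ) = Real.sqrt 1 by simp]
    exact Real.sqrt_le_sqrt (by norm_num)

lemma one_le_lam_aB {r : ℕ} (hr : chevF4.IsPosRoot r) : 1 ≤ lam chevF4 aB r := by
  refine (one_le_lam_one memF4 hr).trans ?_
  unfold lam
  apply Finset.sum_le_sum
  intro k _
  exact mul_le_mul_of_nonneg_right (one_le_aB k) (Int.cast_nonneg (rcf_nonneg (lvOK_of_mem memF4) hr k.2))

lemma U_le_uT_aB {K : Type*} [Field K] : chevF4.posUnipotent K ≤ uT K (deg chevF4 aB) := by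
  unfold ChevalleyDatum.posUnipotent
  rw [Subgroup.closure_le]
  rintro g ⟨r, t, hr, hg⟩
  rw [(base_of_mem K memF4).eq_xg hg]
  exact xg_mem_uT memF4 _ hr (one_le_lam_aB hr) t

variable {K : Type*} [Field K] [Fintype K] {m : ℕ}

/-- the invariant functionals of `²F₄`. -/
noncomputable def twA (W : F4Tw K m) : TwA W.fixBN where
  A := AF4
  closed := isClosed_AF4
  mid := by
    rintro a ⟨h1, h2⟩ a' ⟨h1', h2'⟩
    constructor
    · show (a j3 + a' j3) / 2 = Real.sqrt 2 * ((a j0 + a' j0) / 2)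
      rw [h1, h1']; ring
    · show (a j2 + a' j2) / 2 = Real.sqrt 2 * ((a j1 + a' j1) / 2)
      rw [h2, h2']; ring
  act := by
    intro O hO a ha
    have hO' : O ∈ orbsF4 := hO
    obtain ⟨h1, h2⟩ := tw_nW memF4 W.X.hB O (sTabF4.lt O hO') a
    refine ⟨reflL chevF4 O a, ?_, h1, h2⟩
    simp only [orbsF4, List.mem_cons, List.not_mem_nil, or_false] at hO'
    rcases hO' with rfl | rfl
    · exact mem_03 ha
    · exact mem_1212 ha
  dom := by
    intro a ha hdom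
    have hc : a j0 < 0 ∨ a j1 < 0 := by
      by_contra hcon
      push Not at hcon
      apply hdom
      refine forall_j hcon.1 hcon.2 ?_ ?_
      · rw [ha.2]; exact mul_nonneg sq2_pos.le hcon.2
      · rw [ha.1]; exact mul_nonneg sq2_pos.le hcon.1
    rcases hc with hc | hc
    · have hO' : [0, 3] ∈ orbsF4 := by simp [orbsF4]
      obtain ⟨h1, h2⟩ := tw_nW memF4 W.X.hB [0, 3] (sTabF4.lt _ hO') a
      exact ⟨[0, 3], hO', _, mem_03 ha, h1, h2, card_03 ha hc⟩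
    · have hO' : [1, 2, 1, 2] ∈ orbsF4 := by simp [orbsF4]
      obtain ⟨h1, h2⟩ := tw_nW memF4 W.X.hB [1, 2, 1, 2] (sTabF4.lt _ hO') a
      exact ⟨[1, 2, 1, 2], hO', _, mem_1212 ha, h1, h2, card_1212 ha hc⟩
  base := ⟨aB, aB_mem, U_le_uT_aB⟩

end Cfsg.Agent.Lib.Helper18.TBT
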