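import Cfsg.Agent.Lib.Helper18.TBT.Gen
import Cfsg.Agent.Lib.Helper18.F4Exp

set_option autoImplicit false

namespace Cfsg.Agent.Lib.Helper18.TBT

open Cfsg.Lie Matrix Cfsg.Agent.Lib.Helper6 Cfsg.Agent.Lib.Helper17 Cfsg.Agent.Lib.Helper18 Cfsg.Agent.Lib.Helper36
  Cfsg.Agent.Lib.Lead.FixTwist

variable {K : Type*} [Field K] [Fintype K] {m : ℕ}

/-! ## [PE] a 2-subgroup of `²F₄(q)` is conjugate (inside `²F₄(q)`) into `U`. -/
theorem conj_into_U (W : F4Tw K m) (Q : Subgroup (GL chevF4.Idx K)) (hQ : Q ≤ twistedF4 K (2 ^ m))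
    (hp : IsPGroup 2 ↥Q) :
    ∃ g ∈ twistedF4 K (2 ^ m), ∀ x ∈ Q, g⁻¹ * x * g ∈ chevF4.posUnipotent K := by
  classical
  have : Fact (Nat.Prime 2) := ⟨Nat.prime_two⟩
  have := W.char2
  set P : Subgroup ↥(twistedF4 K (2 ^ m)) :=
    (chevF4.posUnipotent K ⊓ twistedF4 K (2 ^ m)).subgroupOf (twistedF4 K (2 ^ m)) with hP
  have hcard : Nat.card ↥P = Fintype.card K ^ 12 := by
    rw [← W.card_U1]
    exact Nat.card_congr (Subgroup.subgroupOfEquivOfLe inf_le_right).toEquiv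
  have hPp : IsPGroup 2 ↥P := IsPGroup.of_card (n := (2 * m + 1) * 12) (by rw [hcard, W.hK, pow_mul])
  have hidx : ¬ 2 ∣ P.index := by
    have h1 := P.card_mul_index
    rw [hcard, W.card_G1, mul_assoc] at h1
    have hpos : 0 < Fintype.card K ^ 12 := pow_pos Fintype.card_pos 12
    have h2 := Nat.eq_of_mul_eq_mul_left hpos h1
    rw [h2, W.hK]
    set q := 2 ^ (2 * m + 1) with hq
    have he : Even q := ⟨2 ^ (2 * m), by rw [hq, pow_succ]; ring⟩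
    have hq1 : 1 ≤ q := Nat.one_le_two_pow
    have ho : Odd (q - 1) := Nat.Even.sub_odd hq1 he odd_one
    have hk : ∀ k, k ≠ 0 → Odd (1 + q ^ k) := fun k hk => odd_one.add_even (he.pow_of_ne_zero hk)
    have h3 : Odd ((q - 1) ^ 2 * ((1 + q) * (1 + q ^ 2) * (1 + q ^ 3) * (1 + q ^ 6))) := by
      have := hk 1 one_ne_zero
      rw [pow_one] at this
      exact (ho.pow).mul (((this.mul (hk 2 (by norm_num))).mul (hk 3 (by norm_num))).mul (hk 6 (by norm_num)))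
    intro h4
    exact (Nat.not_even_iff_odd.mpr h3) (even_iff_two_dvd.mpr h4)
  have hQ' : IsPGroup 2 ↥(Q.subgroupOf (twistedF4 K (2 ^ m))) := hp.comap_subtype
  obtain ⟨P', hP'⟩ := hQ'.exists_le_sylow
  obtain ⟨g, hg⟩ := MulAction.exists_smul_eq (↥(twistedF4 K (2 ^ m))) P' (hPp.toSylow hidx)
  refine ⟨(g : GL chevF4.Idx K)⁻¹, inv_mem g.2, fun x hx => ?_⟩
  have h1 : (⟨x, hQ hx⟩ : ↥(twistedF4 K (2 ^ m))) ∈ (P' : Subgroup ↥(twistedF4 K (2 ^ m))) :=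
    hP' (Subgroup.mem_subgroupOf.2 hx)
  have h2 : g * ⟨x, hQ hx⟩ * g⁻¹ ∈ ((hPp.toSylow hidx : Sylow 2 ↥(twistedF4 K (2 ^ m))) :
      Subgroup ↥(twistedF4 K (2 ^ m))) := by
    rw [← hg, Sylow.coe_subgroup_smul]
    exact ⟨_, h1, rfl⟩
  have h3 : g * ⟨x, hQ hx⟩ * g⁻¹ ∈ P := h2
  rw [hP, Subgroup.mem_subgroupOf] at h3
  simpa using h3.1

end Cfsg.Agent.Lib.Helper18.TBT
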