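import Mathlib

set_option autoImplicit false

namespace Cfsg.Agent.Lib.Helper18.TBT

/-! ## [PN] arithmetic. -/
theorem primeFactors_sub (q : ℕ) (hq : 2 ≤ q) (e : ℕ) (he : e = 1 ∨ e = 2) (n : ℕ)
    (hn : n ∣ q ^ 12 * (q - 1) ^ 2 + q ^ 12 * (q - 1) ^ 2 * q ^ e) :
    n.primeFactors ⊆ (q * (q ^ 4 - 1)).primeFactors := by
  obtain ⟨k, rfl⟩ : ∃ k, q = k + 1 := ⟨q - 1, by omega⟩
  have hk : 1 ≤ k := by omega
  have hfac : (k + 1) ^ 4 - 1 = k * (1 + (k + 1)) * (1 + (k + 1) ^ 2) := by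
    have : (k + 1) ^ 4 = k * (1 + (k + 1)) * (1 + (k + 1) ^ 2) + 1 := by ring
    rw [this, Nat.add_sub_cancel]
  have hne : (k + 1) * ((k + 1) ^ 4 - 1) ≠ 0 := by
    rw [hfac]
    positivity
  intro r hr
  obtain ⟨hrp, hrn, -⟩ := Nat.mem_primeFactors.1 hr
  rw [Nat.mem_primeFactors]
  refine ⟨hrp, ?_, hne⟩
  have h1 : r ∣ (k + 1) ^ 12 * (k + 1 - 1) ^ 2 * (1 + (k + 1) ^ e) := by
    have := hrn.trans hn
    rwa [show (k + 1) ^ 12 * (k + 1 - 1) ^ 2 + (k + 1) ^ 12 * (k + 1 - 1) ^ 2 * (k + 1) ^ e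
      = (k + 1) ^ 12 * (k + 1 - 1) ^ 2 * (1 + (k + 1) ^ e) by ring] at this
  rw [Nat.add_sub_cancel] at h1
  rw [hfac]
  rcases (Nat.Prime.dvd_mul hrp).1 h1 with h2 | h2
  · rcases (Nat.Prime.dvd_mul hrp).1 h2 with h3 | h3
    · exact Dvd.dvd.mul_right (hrp.dvd_of_dvd_pow h3) _
    · have := hrp.dvd_of_dvd_pow h3
      exact Dvd.dvd.mul_left (Dvd.dvd.mul_right (Dvd.dvd.mul_right this _) _) _
  · rcases he with rfl | rfl
    · rw [pow_one] at h2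
      exact Dvd.dvd.mul_left (Dvd.dvd.mul_right (Dvd.dvd.mul_left h2 _) _) _
    · exact Dvd.dvd.mul_left (Dvd.dvd.mul_left h2 _) _

end Cfsg.Agent.Lib.Helper18.TBT
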