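import Cfsg.Agent.Lib.Helper18.TBT.PA
import Cfsg.Agent.Lib.Helper18.TBT.PB
import Cfsg.Agent.Lib.Helper18.TBT.PC
import Cfsg.Agent.Lib.Helper18.TBT.PD
import Cfsg.Agent.Lib.Helper18.TBT.PE
import Cfsg.Agent.Lib.Helper18.TBT.PN
import Cfsg.Agent.S0311

set_option autoImplicit false

/-! Elements of `²F₄(q)` commuting with an involution. -/

namespace Cfsg.Agent.Lib.Helper18.TBT

open Cfsg.Lie Matrix Cfsg.Agent.Lib.Helper6 Cfsg.Agent.Lib.Helper17 Cfsg.Agent.Lib.Helper18 Cfsg.Agent.Lib.Helper36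
  Cfsg.Agent.Lib.Lead.FixTwist Cfsg.Agent.Lib.Helper19.BT Cfsg.Agent.Lib.Helper6.BN

section abs

variable {G : Type*} [Group G] [Finite G] (P : Cfsg.BNPair G)

lemma card_parabolic_singleton {s : G} (hs : s ∈ P.S) :
    Nat.card (P.parabolic {s}) = Nat.card P.B + Nat.card (dc P s) := by
  have hdisj : Disjoint (P.B : Set G) (dc P s) := by
    rw [Set.disjoint_left]
    intro g hg hg'
    have h1 : s ∈ dc P g := mem_dc_comm hg'
    exact S_not_mem_B hs ((mem_dc_of_mem_B hg).1 h1)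
  have hunion : ((P.parabolic {s} : Subgroup G) : Set G) = (P.B : Set G) ∪ dc P s := by
    ext g
    exact mem_parabolic_singleton hs g
  have h1 : Nat.card (P.parabolic {s}) = ((P.parabolic {s} : Subgroup G) : Set G).ncard :=
    Nat.card_coe_set_eq _
  rw [h1, hunion, Set.ncard_union_eq hdisj (Set.toFinite _) (Set.toFinite _)]
  rfl

end abs

variable {K : Type*} [Field K] [Fintype K] {m : ℕ} (W : F4Tw K m)

theorem negF4 : chevF4.IsNegRoot (wAct chevF4 [0, 3] (chevF4.simple 0)) ∧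
    chevF4.IsNegRoot (wAct chevF4 [1, 2, 1, 2] (chevF4.simple 1)) := by decide +kernel

/-- the order of a minimal parabolic subgroup. -/
lemma card_par {O : List ℕ} (hO : O ∈ orbsF4) (s : ↥W.fixBN.G1) (hs : (s : GL chevF4.Idx K) = W.fixBN.sO O) :
    ∃ e, (e = 1 ∨ e = 2) ∧ Nat.card (W.fixBN.bnPair.parabolic {s}) =
      Fintype.card K ^ 12 * (Fintype.card K - 1) ^ 2 +
        Fintype.card K ^ 12 * (Fintype.card K - 1) ^ 2 * Fintype.card K ^ e := by
  have hsS : s ∈ W.fixBN.bnPair.S := ⟨O, hO, hs⟩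
  have hB : Nat.card ↥W.fixBN.bnPair.B = Fintype.card K ^ 12 * (Fintype.card K - 1) ^ 2 := by
    rw [card_B1 W.fixBN]
    have h1 : Nat.card ↥(chevF4.posUnipotent K ⊓ W.fixBN.G1) = Fintype.card K ^ 12 := W.card_U1
    have h2 : Nat.card ↥(chevF4.diagonalSubgroup K ⊓ W.fixBN.G1) = (Fintype.card K - 1) ^ 2 := W.card_H1
    rw [h1, h2]
  rw [card_parabolic_singleton _ hsS, card_dc_sO W.fixBN hO s hs, hB, FixB.Um_inf_G1 W.fixBN]
  have e1 : Um chevF4 K (W.fixBN.sO O) = W.X.hB.UmW O := W.Um_nW hO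
  rw [e1]
  simp only [orbsF4, List.mem_cons, List.not_mem_nil, or_false] at hO
  rcases hO with rfl | rfl
  · refine ⟨1, Or.inl rfl, ?_⟩
    have : Nat.card ↥(W.X.hB.UmW [0, 3] ⊓ W.fixBN.F) = Fintype.card K := W.card_pair
    rw [this, pow_one]
  · refine ⟨2, Or.inr rfl, ?_⟩
    have : Nat.card ↥(W.X.hB.UmW [1, 2, 1, 2] ⊓ W.fixBN.F) = Fintype.card K ^ 2 := W.card_quad
    rw [this]

/-- the stabiliser of a nonzero dominant invariant functional lies in a minimal parabolic subgroup. -/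
lemma exists_par {a₀ : Fin chevF4.rank → ℝ} (ha : a₀ ∈ AF4) (hdom : ∀ k, 0 ≤ a₀ k) (hne : ∃ k, a₀ k ≠ 0) :
    ∃ O ∈ orbsF4, ∃ s : ↥W.fixBN.G1, (s : GL chevF4.Idx K) = W.fixBN.sO O ∧
      ∀ y : ↥W.fixBN.G1, (y : GL chevF4.Idx K) ∈ pT K (deg chevF4 a₀) → y ∈ W.fixBN.bnPair.parabolic {s} := by
  set T := W.fixBN with hT
  set P1 : Subgroup ↥T.G1 := (pT K (deg chevF4 a₀)).subgroupOf T.G1 with hP1
  have hBP : T.bnPair.B ≤ P1 := by
    intro g hg
    rw [hP1, Subgroup.mem_subgroupOf]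
    exact B_le_pT memF4 hdom ((T.mem_B1 g).1 hg)
  obtain ⟨J, hJ, hPJ⟩ := Cfsg.Agent.S0311.result T.bnPair P1 hBP
  have hc : a₀ j0 ≠ 0 ∨ a₀ j1 ≠ 0 := by
    by_contra hcon
    push Not at hcon
    obtain ⟨k, hk⟩ := hne
    apply hk
    revert k
    refine forall_j (P := fun k => a₀ k ≠ 0 → a₀ k = 0) (fun _ => hcon.1) (fun _ => hcon.2) (fun _ => ?_) (fun _ => ?_)
    · rw [ha.2, hcon.2, mul_zero]
    · rw [ha.1, hcon.1, mul_zero]
  have key : ∀ (O O' : List ℕ) (i : Fin chevF4.rank), O ∈ orbsF4 → O' ∈ orbsF4 →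
      (∀ O'' ∈ orbsF4, O'' = O ∨ O'' = O') → a₀ i ≠ 0 →
      chevF4.IsNegRoot (wAct chevF4 O' (chevF4.simple i)) →
      ∃ O ∈ orbsF4, ∃ s : ↥T.G1, (s : GL chevF4.Idx K) = T.sO O ∧
        ∀ y : ↥T.G1, (y : GL chevF4.Idx K) ∈ pT K (deg chevF4 a₀) → y ∈ T.bnPair.parabolic {s} := by
    intro O O' i hO hO' hall hi hneg
    refine ⟨O, hO, ⟨T.sO O, T.sO_mem O hO⟩, rfl, fun y hy => ?_⟩
    have hy1 : y ∈ P1 := by rw [hP1, Subgroup.mem_subgroupOf]; exact hy
    rw [hPJ] at hy1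
    refine parabolic_mono ?_ hy1
    intro s hs
    obtain ⟨O'', hO'', hs''⟩ := hJ hs
    rcases hall O'' hO'' with rfl | rfl
    · exact Subtype.ext hs''
    · exfalso
      have hs1 : s ∈ P1 := by rw [hPJ]; exact mem_parabolic_of_mem hs
      rw [hP1, Subgroup.mem_subgroupOf, hs''] at hs1
      exact hi (vanish_of_sO_mem memF4 T hO'' hdom hs1 i hneg)
  have hall : ∀ O'' ∈ orbsF4, O'' = [0, 3] ∨ O'' = [1, 2, 1, 2] := by
    intro O'' h
    simpa [orbsF4] using h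
  rcases hc with hc | hc
  · exact key [1, 2, 1, 2] [0, 3] j0 (by simp [orbsF4]) (by simp [orbsF4]) (fun O'' h => (hall O'' h).symm) hc negF4.1
  · exact key [0, 3] [1, 2, 1, 2] j1 (by simp [orbsF4]) (by simp [orbsF4]) hall hc negF4.2

include W in
theorem main (a b : ↥(twistedF4 K (2 ^ m))) (ha : orderOf a = 2) (hab : Commute a b) :
    (orderOf b).primeFactors ⊆ (Fintype.card K * (Fintype.card K ^ 4 - 1)).primeFactors := by
  set Q : Subgroup (GL chevF4.Idx K) := Subgroup.zpowers (a : GL chevF4.Idx K) with hQ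
  have hoa : orderOf (a : GL chevF4.Idx K) = 2 := by rw [Subgroup.orderOf_coe, ha]
  have hQG : Q ≤ twistedF4 K (2 ^ m) := by
    rw [hQ, Subgroup.zpowers_le]; exact a.2
  have hQp : IsPGroup 2 ↥Q := IsPGroup.of_card (n := 1) (by rw [hQ, Nat.card_zpowers, hoa, pow_one])
  have hne : Q ≠ ⊥ := by
    intro h
    rw [hQ, Subgroup.zpowers_eq_bot] at h
    rw [h, orderOf_one] at hoa
    norm_num at hoa
  obtain ⟨g, hg, a₀, ha₀, hdom, hnz, hN⟩ := tbt (twA W) memF4 Q hne (conj_into_U W Q hQG hQp)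
  have hbN : (b : GL chevF4.Idx K) ∈ Subgroup.normalizer (Q : Set (GL chevF4.Idx K)) := by
    have hc : Commute (a : GL chevF4.Idx K) (b : GL chevF4.Idx K) := by
      have := congrArg (fun x : ↥(twistedF4 K (2 ^ m)) => (x : GL chevF4.Idx K)) hab.eq
      exact this
    rw [Subgroup.mem_normalizer_iff]
    intro h
    have hh : ∀ h ∈ Q, (b : GL chevF4.Idx K) * h * (b : GL chevF4.Idx K)⁻¹ = h := by
      intro h hh
      obtain ⟨k, rfl⟩ := Subgroup.mem_zpowers_iff.mp hh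
      have := (hc.zpow_left k).eq
      rw [← this]; group
    constructor
    · intro h1; rw [hh h h1]; exact h1
    · intro h1
      have h2 := hh _ h1
      have h3 : (b : GL chevF4.Idx K) * h * (b : GL chevF4.Idx K)⁻¹ = h :=
        mul_left_cancel (mul_right_cancel h2)
      rw [← h3]; exact h1
  have hy := hN _ hbN b.2
  obtain ⟨O, hO, s, hs, hpar⟩ := exists_par W ha₀ hdom hnz
  set g' : ↥W.fixBN.G1 := ⟨g, hg⟩ with hg'
  set b' : ↥W.fixBN.G1 := b with hb'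
  have hy' : g'⁻¹ * b' * g' ∈ W.fixBN.bnPair.parabolic {s} := hpar _ hy
  obtain ⟨e, he, hcard⟩ := card_par W hO s hs
  have hord : orderOf b = orderOf (g'⁻¹ * b' * g') := by
    have h1 := MulEquiv.orderOf_eq (MulAut.conj g'⁻¹) b'
    rw [MulAut.conj_apply, inv_inv] at h1
    exact h1.symm
  have hdvd : orderOf b ∣ Nat.card (W.fixBN.bnPair.parabolic {s}) := by
    rw [hord]
    have := orderOf_dvd_natCard (⟨_, hy'⟩ : ↥(W.fixBN.bnPair.parabolic {s}))
    rwa [Subgroup.orderOf_mk] at this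
  rw [hcard] at hdvd
  have hq2 : 2 ≤ Fintype.card K := by
    rw [W.hK]
    calc 2 = 2 ^ 1 := (pow_one 2).symm
      _ ≤ 2 ^ (2 * m + 1) := Nat.pow_le_pow_right (by norm_num) (by omega)
  exact primeFactors_sub _ hq2 e he _ hdvd

end Cfsg.Agent.Lib.Helper18.TBT
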