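import Cfsg.Agent.Lib.Helper18.TBT.Gen

set_option autoImplicit false

namespace Cfsg.Agent.Lib.Helper18.TBT

open Cfsg.Lie Matrix Cfsg.Agent.Lib.Helper6 Cfsg.Agent.Lib.Helper17 Cfsg.Agent.Lib.Helper18 Cfsg.Agent.Lib.Helper36
  Cfsg.Agent.Lib.Lead.FixTwist Cfsg.Agent.Lib.Helper19.BT

variable {D : ChevalleyDatum} {K : Type*} [Field K] {X : BNData D K}

/-! ## [PA] if `s_O` stabilises the filtration of a dominant functional `a`, then `a` vanishes on `O`. -/
theorem vanish_of_sO_mem (hD : D ∈ [chevG2, chevB2, chevD4, chevF4, chevE6, chevE7, chevE8])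
    (T : FixBN X) {O : List ℕ} (hO : O ∈ T.orbs) {a : Fin D.rank → ℝ} (hdom : ∀ k, 0 ≤ a k)
    (hmem : T.sO O ∈ pT K (deg D a)) (i : Fin D.rank)
    (hneg : D.IsNegRoot (wAct D O (D.simple i))) : a i = 0 := by
  have hT := X.hT.tab
  obtain ⟨h, hh, e⟩ := T.sO_eq O hO
  have hsl := hT.simple_lt i i.2
  have hshape : MonShape D (wAct D O) ((T.sO O : GL D.Idx K) : Matrix D.Idx D.Idx K) := by
    rw [e]; exact X.hB.monShape_hnW hh (T.orb_lt O hO)
  have hex : ∃ row, ((T.sO O : GL D.Idx K) : Matrix D.Idx D.Idx K) row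
      (Sum.inr ⟨D.simple i, hsl⟩) ≠ 0 := by
    by_contra hc
    push Not at hc
    have h1 : (((T.sO O : GL D.Idx K)⁻¹ : GL D.Idx K) : Matrix D.Idx D.Idx K) *
        ((T.sO O : GL D.Idx K) : Matrix D.Idx D.Idx K) = 1 := by
      rw [← Units.val_mul, inv_mul_cancel, Units.val_one]
    have h2 := congrFun (congrFun h1 (Sum.inr ⟨D.simple i, hsl⟩)) (Sum.inr ⟨D.simple i, hsl⟩)
    rw [Matrix.mul_apply, Matrix.one_apply_eq] at h2
    rw [Finset.sum_eq_zero (fun k _ => by rw [hc k, mul_zero])] at h2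
    exact zero_ne_one h2
  obtain ⟨row, hrow⟩ := hex
  rcases row with j | u
  · exact absurd (hshape.1 j _) hrow
  · have hu : (u : ℕ) = wAct D O (D.simple i) := by
      by_contra hc
      exact hrow (hshape.2.2 u ⟨D.simple i, hsl⟩ hc)
    have h3 := hmem.1 (Sum.inr u) (Sum.inr ⟨D.simple i, hsl⟩) hrow
    have h4 : lam D a (D.simple i) + 0 ≤ lam D a u := h3
    have hnegu : D.IsNegRoot (u : ℕ) := hu ▸ hneg
    have hpos : D.IsPosRoot (D.neg (u : ℕ)) := hT.isPos_neg hnegu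
    have h5 := lam_nonneg hD hdom hpos
    rw [lam_neg hD a u.2] at h5
    have h6 := lam_simple hD a i
    have h7 : (0 : ℝ) < (dt D : ℝ) := by exact_mod_cast dt_pos hD
    have h8 : (dt D : ℝ) * a i ≤ 0 := by rw [← h6]; linarith
    have h9 : a i ≤ 0 := by
      by_contra hc
      push Not at hc
      have := mul_pos h7 hc
      linarith
    exact le_antisymm h9 (hdom i)

end Cfsg.Agent.Lib.Helper18.TBT
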